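import Cfsg.Agent.WA.RwT
import Cfsg.Agent.S0998
import Cfsg.Agent.H5.GWc4
import Cfsg.Agent.L0.ElemAb
import Cfsg.Agent.H7.Misc
import Mathlib.GroupTheory.GroupAction.Jordan
import Mathlib.GroupTheory.Perm.Centralizer

/-! Nonsolvable subgroups of `A₈`. -/

set_option autoImplicit false
set_option linter.unusedSectionVars false
set_option linter.unusedVariables false

namespace Cfsg.Agent.H8.A8

open Subgroup Equiv Cfsg.Agent.FT Cfsg.Agent.L0 Cfsg.Agent.H8 Cfsg.Agent.WA.Rw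
open Cfsg.Agent.H7 (opp)
open scoped commutatorElement

local instance f3 : Fact (Nat.Prime 3) := Nat.fact_prime_three
local instance f5 : Fact (Nat.Prime 5) := ⟨by norm_num⟩
local instance f7 : Fact (Nat.Prime 7) := ⟨by norm_num⟩

theorem cA : #|alternatingGroup (Fin 8)| = 20160 := by
  rw [nat_card_alternatingGroup]; simp [Nat.factorial]

theorem cS {x : Perm (Fin 8)} {p : ℕ} (hp : p = 5 ∨ p = 7) (hx : orderOf x = p) :
    x.support.card = p ∧ #|𝐂[x]| = (8 - p).factorial * p := by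
  have h1 : x.IsCycle := Perm.isCycle_of_prime_order' (by rcases hp with rfl | rfl <;> rw [hx] <;> norm_num)
    (by rw [hx]; simp; omega)
  have h2 := h1.orderOf
  rw [hx] at h2
  refine ⟨h2.symm, ?_⟩
  rw [Perm.nat_card_centralizer, h1.cycleType, ← h2]; simp

variable {Q : Type*} [Group Q] [Finite Q] (f : Q →* alternatingGroup (Fin 8)) (hf : Function.Injective f)
include hf

theorem cQ : Nat.card Q ∣ 20160 := cA ▸ card_dvd_of_injective f hf

theorem cle_of {K : Subgroup Q} {M : Subgroup (Perm (Fin 8))} (h : ∀ k ∈ K, (f k : Perm (Fin 8)) ∈ M) :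
    #|K| ∣ #|(M ⊓ alternatingGroup (Fin 8) : Subgroup _)| := by
  rw [← card_map_of_injective (f := (alternatingGroup (Fin 8)).subtype.comp f) (Subtype.val_injective.comp hf)]
  exact card_dvd_of_le (by rintro _ ⟨k, hk, rfl⟩; exact ⟨h k hk, (f k).2⟩)

theorem ordf (x : Q) : orderOf (f x : Perm (Fin 8)) = orderOf x := by
  rw [Subgroup.orderOf_coe, orderOf_injective f hf]

theorem cmap (x : Q) : ∀ k ∈ 𝐂[x], (f k : Perm (Fin 8)) ∈ 𝐂[(f x : Perm (Fin 8))] := fun k hk => by
  rw [mem_c1, ← coe_mul, ← map_mul, mem_c1.1 hk, map_mul, coe_mul]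

theorem c7 {x : Q} (hx : orderOf x = 7) : #|𝐂[x]| ∣ 7 :=
  (cle_of f hf (cmap f hf x)).trans ((card_dvd_of_le inf_le_left).trans
    (dvd_of_eq (cS (Or.inr rfl) ((ordf f hf x).trans hx)).2))

theorem c5 {x : Q} (hx : orderOf x = 5) : #|𝐂[x]| ∣ 15 := by
  refine (cle_of f hf (cmap f hf x)).trans (dvd_of_eq ?_)
  obtain ⟨h1, h2⟩ := cS (Or.inl rfl) ((ordf f hf x).trans hx)
  generalize (f x : Perm (Fin 8)) = y at *
  obtain ⟨a, ha, b, hb, hab⟩ := Finset.one_lt_card.1 (show 1 < y.supportᶜ.card by rw [Finset.card_compl, h1]; simp)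
  rw [Finset.mem_compl, Perm.notMem_support] at ha hb
  have h3 : swap a b ∈ 𝐂[y] := mem_c1.2 (by rw [Equiv.mul_swap_eq_swap_mul, ha, hb])
  have h4 := clt (A := 𝐂[y] ⊓ alternatingGroup (Fin 8)) inf_le_left h3 fun e => by
    have := e.2; simp [Perm.sign_swap hab] at this
  have h5 := cle2 (A := alternatingGroup (Fin 8)) (B := 𝐂[y]) fun c _ d _ hc hd => by
    rw [Perm.mem_alternatingGroup] at *
    rw [map_mul, (Int.units_eq_one_or _).resolve_left hc, (Int.units_eq_one_or _).resolve_left hd]; rfl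
  replace h2 : #|𝐂[y]| = 30 := h2
  omega

theorem n7' {P : Subgroup Q} (hP : #|P| = 7) : #|𝐂(P)| = 7 ∧ #|𝐍(P)| ∣ 42 := by
  obtain ⟨x, hx, rfl⟩ := H6.exists_zpowers_of_card_prime hP
  have h1 : #|𝐂(zpowers x)| = 7 := Nat.dvd_antisymm
    ((card_dvd_of_le fun g hg => mem_c1.2 (hg x (mem_zpowers x)).symm).trans (c7 f hf hx))
    (hP ▸ card_dvd_of_le fun _ ⟨i, hi⟩ _ ⟨j, hj⟩ => hi ▸ hj ▸ zpow_mul_comm x j i)
  refine ⟨h1, ?_⟩
  rw [← H6.relIndex_centralizer_mul_card, h1]
  exact mul_dvd_mul_right (H6.relIndex_centralizer_dvd_sub_one hP) 7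

theorem n7 {P : Subgroup Q} (hP : #|P| = 7) : #|𝐍(P)| ∣ 21 := by
  have h1 : #|P.map f| = 7 := by rw [card_map_of_injective hf, hP]
  obtain ⟨h2, h3⟩ := n7' (MonoidHom.id _) Function.injective_id h1
  let S : Sylow 7 (alternatingGroup (Fin 8)) := Sylow.ofCard (P.map f) (by
    rw [h1, cA, show 20160 = 7 ^ 1 * 2880 from rfl, Nat.factorization_mul (by norm_num) (by norm_num)]
    simp [Nat.factorization_eq_zero_of_not_dvd (show ¬ 7 ∣ 2880 by norm_num), Nat.Prime.factorization_self f7.out])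
  have h4 := H6.card_sylow_mul_card_normalizer S
  have h5 := card_sylow_modEq_one 7 (alternatingGroup (Fin 8))
  have h6 : 7 ∣ #|𝐍(P.map f)| := h1 ▸ card_dvd_of_le le_normalizer
  rw [cA, show (S : Subgroup _) = P.map f from rfl] at h4
  refine dvd_trans (b := #|𝐍(P.map f)|) ?_ ?_
  · rw [← card_map_of_injective hf]; exact card_dvd_of_le (le_normalizer_map f)
  · have := Nat.le_of_dvd (by norm_num) h3
    unfold Nat.ModEq at h5
    generalize #|𝐍(P.map f)| = n at *
    interval_cases n <;> omega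

theorem three (h : 9 ∣ Nat.card Q) : ∃ c : Q, (f c : Perm (Fin 8)).IsThreeCycle := by
  obtain ⟨P, hP⟩ := Sylow.exists_subgroup_card_pow_prime 3 (n := 2) h
  let g := (alternatingGroup (Fin 8)).subtype.comp f
  have h1 : IsSylowIn 3 (P.map g) ⊤ := IsSylowIn.of_not_dvd_relIndex le_top ((IsPGroup.of_card hP).map g) (by
    have := (P.map g).index_mul_card
    rw [card_map_of_injective (Subtype.val_injective.comp hf), hP, Nat.card_perm] at this
    simp [Nat.factorial] at this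
    rw [relIndex_top_right]; omega)
  have h2 : (swap (0 : Fin 8) 1 * swap 0 2).IsThreeCycle := Perm.isThreeCycle_swap_mul_swap_same (by decide) (by decide) (by decide)
  obtain ⟨S, hS⟩ := H6.exists_sylow_mem (p := 3) ⟨1, by rw [pow_one, ← h2.orderOf, pow_orderOf_eq_one]⟩
  obtain ⟨k, -, hk⟩ := (isSylowIn_top S).exists_cj_eq h1
  obtain ⟨c, -, hc⟩ := hk.le (conj_mem_cj k hS)
  exact ⟨c, by rw [show (f c : Perm (Fin 8)) = _ from hc, Perm.IsThreeCycle, Perm.cycleType_conj]; exact h2⟩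

theorem fac : ∃ a b c d : ℕ, a ≤ 6 ∧ b ≤ 2 ∧ c ≤ 1 ∧ d ≤ 1 ∧ Nat.card Q = 2 ^ a * 3 ^ b * 5 ^ c * 7 ^ d := by
  obtain ⟨u, u7, h1, h7, e1⟩ := Nat.dvd_mul.1 (show Nat.card Q ∣ 2 ^ 6 * 3 ^ 2 * 5 ^ 1 * 7 ^ 1 from cQ f hf)
  obtain ⟨u, u5, h1', h5, rfl⟩ := Nat.dvd_mul.1 h1
  obtain ⟨u2, u3, h2, h3, rfl⟩ := Nat.dvd_mul.1 h1'
  obtain ⟨a, ha, rfl⟩ := (Nat.dvd_prime_pow Nat.prime_two).1 h2
  obtain ⟨b, hb, rfl⟩ := (Nat.dvd_prime_pow f3.out).1 h3
  obtain ⟨c, hc, rfl⟩ := (Nat.dvd_prime_pow f5.out).1 h5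
  obtain ⟨d, hd, rfl⟩ := (Nat.dvd_prime_pow f7.out).1 h7
  exact ⟨a, b, c, d, ha, hb, hc, hd, e1.symm⟩

omit hf in
theorem r57 (h : ¬ Group.IsSolvable Q) (hd : Nat.card Q ∣ 20160) : 5 ∣ Nat.card Q ∨ 7 ∣ Nat.card Q := by
  by_contra! a
  have h1 : Nat.card Q ∣ 2 ^ 6 * 3 ^ 2 :=
    ((f5.out.coprime_iff_not_dvd.2 a.1).symm.mul_right (f7.out.coprime_iff_not_dvd.2 a.2).symm).dvd_of_dvd_mul_right
      (show _ ∣ 2 ^ 6 * 3 ^ 2 * (5 * 7) from hd)
  obtain ⟨u2, u3, h2, h3, e⟩ := Nat.dvd_mul.1 h1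
  obtain ⟨a, ha, rfl⟩ := (Nat.dvd_prime_pow Nat.prime_two).1 h2
  obtain ⟨b, hb, rfl⟩ := (Nat.dvd_prime_pow f3.out).1 h3
  exact h (isSolvable_of_card_eq_pow_mul_pow Nat.prime_two f3.out e.symm)

omit hf in
theorem pf_map {L : Subgroup Q} (h : ⁅L, L⁆ = L) {A : Type*} [Group A] [Group.IsSolvable A] (g : Q →* A) : L ≤ g.ker :=
  (Subgroup.map_eq_bot_iff _).1 (by_contra fun a => (Group.IsSolvable.commutator_lt_of_ne_bot a).ne (by
    rw [← Subgroup.map_commutator, h]))

/-- a nonsolvable subgroup of `A₈` with `O₂ = 1` has a nonabelian simple normal subgroup -/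
theorem exists_simple (hns : ¬ Group.IsSolvable Q) (h2 : pCore 2 Q = ⊥) :
    ∃ L : Subgroup Q, L.Normal ∧ IsSimpleGroup L ∧ ¬ Group.IsSolvable L := by
  obtain ⟨L, -, ⟨hn, hs⟩, hmin⟩ := exists_minimal_le_of_wellFoundedLT (fun K : Subgroup Q => K.Normal ∧ ¬ Group.IsSolvable K)
    ⊤ ⟨inferInstance, fun a => hns (Group.isSolvable_of_surjective (f := (⊤ : Subgroup Q).subtype)
      fun x => ⟨⟨x, trivial⟩, rfl⟩)⟩
  have pf : ⁅L, L⁆ = L := le_antisymm (commutator_le_left _ _) (hmin ⟨inferInstance, fun a => hs (by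
    rw [← map_subtype_commutator] at a
    exact (Group.isSolvable_iff_subgroup_quotient (commutator L)).2 ⟨Group.isSolvable_of_isSolvable_injective
      (f := ((commutator L).equivMapOfInjective _ L.subtype_injective).toMonoidHom) (MulEquiv.injective _),
      inferInstanceAs (Group.IsSolvable (Abelianization L))⟩)⟩ (commutator_le_left _ _))
  have pf' : commutator L = ⊤ := map_injective L.subtype_injective (by
    rw [map_subtype_commutator, pf, ← MonoidHom.range_eq_map, range_subtype])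
  have l0 : L ≠ ⊥ := by rintro rfl; exact hs inferInstance
  have cL := (card_subgroup_dvd_card L).trans (cQ f hf)
  obtain ⟨M, m1, m2, m3, m4⟩ := exists_minimal_normal_le hn l0
  have ms : ¬ Group.IsSolvable M := fun ms => by
    obtain ⟨p, hp, hc, he⟩ := isElementaryAbelian_of_minimal_normal m2 m3 m4
    have : Fact p.Prime := ⟨hp⟩
    have he' : ∀ x : M, x ^ p = 1 := fun x => Subtype.ext (he x x.2)
    have hM : IsPGroup p M := fun x => ⟨1, by rw [pow_one, he']⟩
    obtain ⟨k, hk⟩ := hM.exists_card_eq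
    have hp2 : p ≠ 2 := by rintro rfl; exact m3 (le_bot_iff.1 (h2 ▸ le_pCore m2 hM))
    have hk0 : k ≠ 0 := fun a => m3 (card_eq_one.1 (by rw [hk, a, pow_zero]))
    have b : ∀ j, p ^ j ∣ 20160 → p ^ j ∣ 315 := fun j a =>
      (((Nat.coprime_primes hp Nat.prime_two).2 hp2).pow j 6).dvd_of_dvd_mul_left a
    have b1 := b k (hk ▸ (card_dvd_of_le m1).trans cL)
    have b2 := (dvd_pow_self p hk0).trans b1
    have b3 : p = 3 ∨ p = 5 ∨ p = 7 := by
      have b4 : p ∣ 3 * 5 * 7 := hp.dvd_of_dvd_pow (b2.trans (show 315 ∣ 105 ^ 2 by norm_num))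
      simpa only [hp.dvd_mul, Nat.prime_dvd_prime_iff_eq hp f3.out, Nat.prime_dvd_prime_iff_eq hp f5.out,
        Nat.prime_dvd_prime_iff_eq hp f7.out, or_assoc] using b4
    have b4 : ∀ j, p ^ j ∣ 315 → j ≤ 2 ∧ (p ≠ 3 → j ≤ 1) := fun j a => by
      refine ⟨le_of_not_gt fun c => ?_, fun d => le_of_not_gt fun c => ?_⟩ <;>
        have := (pow_dvd_pow p c).trans a <;> rcases b3 with rfl | rfl | rfl <;>
        first | exact absurd rfl d | norm_num at this
    have : Group.IsSolvable (MulAut M) := isSolvable_of_primes Nat.prime_two f3.out fun r hr hd => by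
      rw [card_mulAut_of_elementary he' hk] at hd
      have : r ∣ 6 ^ 4 := hd.trans (by
        obtain ⟨c1, c2⟩ := b4 k b1
        rcases b3 with rfl | rfl | rfl <;> interval_cases k <;> first | decide | omega)
      exact ((Nat.Prime.dvd_mul hr).1 (hr.dvd_of_dvd_pow this : r ∣ 2 * 3)).imp
        (Nat.prime_dvd_prime_iff_eq hr Nat.prime_two).1 (Nat.prime_dvd_prime_iff_eq hr f3.out).1
    obtain ⟨x, hx, x1⟩ := (ne_bot_iff_exists_ne_one.1 m3).elim fun x h => (⟨x, x.2, fun e => h (Subtype.ext e)⟩ :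
      ∃ x ∈ M, x ≠ 1)
    obtain ⟨P, hP⟩ := H6.exists_sylow_mem (p := p) (x := (⟨x, m1 hx⟩ : L)) ⟨1, Subtype.ext (by simpa using he x hx)⟩
    obtain ⟨j, hj⟩ := P.2.exists_card_eq
    have c1 := (b4 j (b j (hj ▸ (card_subgroup_dvd_card _).trans cL))).1
    refine x1 (congrArg Subtype.val (H6.eq_one_of_mem_commutator_of_comm P ?_ hP (pf' ▸ mem_top _) fun n _ => ?_))
    · interval_cases j
      · have := (Nat.card_eq_one_iff_unique.1 hj).1; infer_instance
      · have := isCyclic_of_prime_card (hj.trans (pow_one p)); infer_instance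
      · exact ⟨⟨IsPGroup.commutative_of_card_eq_prime_sq hj⟩⟩
    · exact Subtype.ext (mul_inv_eq_iff_eq_mul.1 (congrArg Subtype.val
        (MulEquiv.congr_fun (pf_map pf (MulAut.conjNormal (H := M)) n.2) ⟨x, hx⟩)))
  obtain rfl : M = L := le_antisymm m1 (hmin ⟨m2, ms⟩ m1)
  have := (nontrivial_iff_ne_bot M).2 l0
  refine ⟨M, hn, ⟨fun K hK => or_iff_not_imp_right.2 fun hK1 => ?_⟩, hs⟩
  have key : ∀ r : ℕ, r.Prime → ¬ r * r ∣ 20160 → r ∣ K.index → K = ⊥ := fun r hr a b => by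
    have := Fact.mk hr
    have c : ¬ r ∣ #|K| := fun c => a ((mul_dvd_mul b c).trans (K.index_mul_card ▸ cL))
    have d : opp r M = ⊥ := (m4 _ (normalizer_eq_top_iff.1 (top_le_iff.1 (le_normalizer_of_normal.trans
      (H7.normalizer_le_normalizer_opp M)))) (H7.opp_le M)).resolve_right fun e =>
        H7.not_dvd_card_opp (p := r) M (e.symm ▸ b.trans K.index_dvd_card)
    exact le_bot_iff.1 ((le_pPrimeCore' hK c).trans (((Subgroup.map_eq_bot_iff _).1 d).trans (ker_subtype M).le))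
  rcases r57 (Q := M ⧸ K) (fun a => hK1 (top_le_iff.1 ((pf_map pf' (QuotientGroup.mk' K)).trans (QuotientGroup.ker_mk' K).le)))
    (K.index_dvd_card.trans cL) with a | a
  exacts [key 5 f5.out (by norm_num) a, key 7 f7.out (by norm_num) a]

omit f hf in
theorem idx6 {G : Type*} [Group G] [Finite G] [IsSimpleGroup G] (h9 : 9 ∣ Nat.card G) {M : Subgroup G} (hM : M ≠ ⊤) :
    6 ≤ M.index := le_of_not_gt fun a => absurd ((h9.trans (dvd_mul_left _ 2)).trans
  ((H6.two_mul_card_dvd_factorial_index (H6.not_isMulCommutative_of_card fun hp => by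
    obtain ⟨k, hk⟩ := h9
    rw [hk, show 9 * k = 3 * (3 * k) by ring] at hp
    exact Nat.not_prime_mul (by norm_num) (by omega) hp) hM).trans (Nat.factorial_dvd_factorial (n := 5) (by omega))))
  (by decide)

omit f hf in
theorem prim {α : Type*} [Fintype α] [Nonempty α] (hα : Fintype.card α ≤ 11) (G : Subgroup (Perm α)) [IsSimpleGroup G]
    (h9 : 9 ∣ #|G|) (hm : ∀ a, ∃ g ∈ G, g a ≠ a) : MulAction.IsPreprimitive G α ∧ 6 ≤ Fintype.card α := by
  classical
  have o : ∀ a : α, 6 ≤ (MulAction.orbit G a).ncard := fun a => by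
    rw [← MulAction.index_stabilizer]
    obtain ⟨g, hg, e⟩ := hm a
    exact idx6 h9 fun b => e (b.ge (mem_top (⟨g, hg⟩ : G)))
  have u : ∀ s : Set α, s.ncard ≤ Fintype.card α := fun s => by
    rw [← Nat.card_eq_fintype_card, ← Set.ncard_univ]; exact Set.ncard_le_ncard (Set.subset_univ s)
  have tr : MulAction.IsPretransitive G α := ⟨fun a b => by
    by_contra! e
    have d : Disjoint (MulAction.orbit G a) (MulAction.orbit G b) := Set.disjoint_left.2 fun c ⟨g, hg⟩ ⟨k, hk⟩ =>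
      e (k⁻¹ * g) (by simp only at hg hk; rw [mul_smul, hg, ← hk, inv_smul_smul])
    have := u (MulAction.orbit G a ∪ MulAction.orbit G b)
    rw [Set.ncard_union_eq d] at this
    have := o a
    have := o b
    omega⟩
  obtain ⟨a⟩ := ‹Nonempty α›
  have h6 := (o a).trans (u _)
  have : Nontrivial α := Fintype.one_lt_card_iff_nontrivial.1 (by omega)
  have h7 := (MulAction.index_stabilizer G a).trans_le (u _)
  refine ⟨(MulAction.isCoatom_stabilizer_iff_preprimitive G a).1 ⟨fun e => ?_, fun M hM => by_contra fun e => ?_⟩, h6⟩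
  · have := o a
    rw [← MulAction.index_stabilizer, e, index_top] at this
    omega
  · have a1 := idx6 h9 e
    have a2 := relIndex_mul_index hM.le
    have a3 : (MulAction.stabilizer G a).relIndex M ≠ 1 := fun b => hM.not_ge (relIndex_eq_one.1 b)
    have a4 : (MulAction.stabilizer G a).relIndex M ≠ 0 := fun b =>
      (MulAction.stabilizer G a).index_ne_zero_of_finite (by rw [← a2, b, zero_mul])
    have : 2 * 6 ≤ (MulAction.stabilizer G a).relIndex M * M.index := Nat.mul_le_mul (by omega) a1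
    omega

omit f hf in
theorem alt_or {G α : Type*} [Group G] [Fintype α] [DecidableEq α] [Nontrivial α] (ρ : G →* Perm α)
    (h1 : Function.Injective ρ) (h2 : alternatingGroup α ≤ ρ.range) {n : ℕ} (hn : Fintype.card α = n) :
    Nonempty (G ≃* alternatingGroup (Fin n)) ∨ Nonempty (G ≃* Perm (Fin n)) := by
  let e := Fintype.equivFinOfCardEq hn
  rcases (Nat.dvd_prime Nat.prime_two).1 (alternatingGroup.index_eq_two (α := α) ▸ index_dvd_of_le h2) with a | a
  · exact Or.inr ⟨(MulEquiv.ofBijective ρ ⟨h1, MonoidHom.range_eq_top.1 (index_eq_one.1 a)⟩).trans e.permCongrHom⟩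
  · exact Or.inl ⟨(MonoidHom.ofInjective h1).trans
      ((MulEquiv.subgroupCongr (Perm.eq_alternatingGroup_of_index_eq_two a)).trans e.altCongrHom)⟩

theorem case9 {L : Subgroup Q} [L.Normal] [IsSimpleGroup L] (h9 : 9 ∣ #|L|) : ∃ n, 6 ≤ n ∧ n ≤ 8 ∧
    (Nonempty (Q ≃* alternatingGroup (Fin n)) ∨ n ≤ 7 ∧ Nonempty (Q ≃* Perm (Fin n))) := by
  classical
  let p : Fin 8 → Prop := fun a => ∃ l ∈ L, (f l : Perm (Fin 8)) a ≠ a
  have hp : ∀ (q : Q) a, p a → p ((f q : Perm (Fin 8)) a) := fun q a ⟨l, hl, e⟩ =>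
    ⟨q * l * q⁻¹, Normal.conj_mem ‹_› l hl q, by simpa using e⟩
  have hp' : ∀ (q : Q) a, p ((f q : Perm (Fin 8)) a) ↔ p a := fun q a => ⟨fun h => by simpa using hp q⁻¹ _ h, hp q a⟩
  let ρ : Q →* Perm {a // p a} := MonoidHom.mk' (fun q => (f q : Perm (Fin 8)).subtypePerm (hp' q))
    fun a b => Equiv.ext fun x => Subtype.ext (by show (f (a * b) : Perm (Fin 8)) x = _; rw [map_mul]; rfl)
  have hρ : ∀ q a, (ρ q a : Fin 8) = (f q : Perm (Fin 8)) a := fun _ _ => rfl
  have one : ∀ q, (f q : Perm (Fin 8)) = 1 → q = 1 := fun q h => hf (by rw [map_one]; exact Subtype.ext h)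
  have iL : Function.Injective (ρ.comp L.subtype) := (injective_iff_map_eq_one _).2 fun l hl => Subtype.ext (one _ (by
    ext a
    by_cases ha : p a
    · exact congrArg Fin.val ((hρ l ⟨a, ha⟩).symm.trans (by rw [show ρ l = 1 from hl]; rfl))
    · exact congrArg Fin.val (not_not.1 fun e => ha ⟨l, l.2, e⟩)))
  let e := MonoidHom.ofInjective iL
  have : IsSimpleGroup (ρ.comp L.subtype).range := e.symm.isSimpleGroup
  obtain ⟨c, hc⟩ := three (f.comp L.subtype) (hf.comp L.subtype_injective) h9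
  replace hc : (f c : Perm (Fin 8)).IsThreeCycle := hc
  have sp : ∀ a ∈ (f c : Perm (Fin 8)).support, p a := fun a ha => ⟨c, c.2, Perm.mem_support.1 ha⟩
  obtain ⟨a0, ha0⟩ := Finset.card_pos.1 (hc.card_support ▸ three_pos)
  have : Nonempty {a // p a} := ⟨⟨a0, sp a0 ha0⟩⟩
  have h8 : Fintype.card {a // p a} ≤ 8 := (Fintype.card_subtype_le p).trans (by simp)
  obtain ⟨pr, h6⟩ := prim (by omega) (ρ.comp L.subtype).range (Nat.card_congr e.toEquiv ▸ h9) fun ⟨a, l, hl, h⟩ =>
    ⟨_, ⟨⟨l, hl⟩, rfl⟩, fun b => h (congrArg Subtype.val b)⟩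
  have h3 : (ρ c).IsThreeCycle := by
    rw [← card_support_eq_three_iff, ← hc.card_support]
    exact Finset.card_bij (fun a _ => a.1) (fun a ha => Perm.mem_support.2 fun b => Perm.mem_support.1 ha (Subtype.ext b))
      (fun a _ b _ => Subtype.ext) fun a ha => ⟨⟨a, sp a ha⟩, Perm.mem_support.2 fun b =>
        Perm.mem_support.1 ha (congrArg Subtype.val b), rfl⟩
  have h4 := Perm.alternatingGroup_le_of_isPreprimitive_of_isThreeCycle_mem pr h3 ⟨c, rfl⟩
  have iQ : Function.Injective ρ := (injective_iff_map_eq_one _).2 fun q hq => one q (by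
    have a1 : (f q : Perm (Fin 8)).support ⊆ (Finset.univ.filter p)ᶜ := fun a ha => Finset.mem_compl.2 fun b =>
      Perm.mem_support.1 ha ((hρ q ⟨a, (Finset.mem_filter.1 b).2⟩).symm.trans (by rw [hq]; rfl))
    have a2 := Finset.card_le_card a1
    rw [Finset.card_compl, Fintype.card_fin] at a2
    have a3 : 6 ≤ (Finset.univ.filter p).card := by convert h6.trans_eq (Fintype.card_subtype p)
    refine Perm.card_support_le_one.1 (le_of_not_gt fun b => ?_)
    have := (Perm.card_support_eq_two.1 (show (f q : Perm (Fin 8)).support.card = 2 by omega)).sign_eq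
    rw [Perm.mem_alternatingGroup.1 (f q).2] at this
    exact absurd this (by decide))
  have : Nontrivial {a // p a} := Fintype.one_lt_card_iff_nontrivial.1 (by omega)
  refine ⟨_, h6, h8, (alt_or ρ iQ (h4.trans (by rintro _ ⟨l, rfl⟩; exact ⟨l, rfl⟩)) rfl).imp id fun ⟨e⟩ =>
    ⟨le_of_not_gt fun b => ?_, ⟨e⟩⟩⟩
  have := cQ f hf
  rw [Nat.card_congr e.toEquiv, Nat.card_perm, Nat.card_eq_fintype_card, Fintype.card_fin,
    show Fintype.card {a // p a} = 8 by omega] at this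
  exact absurd this (by decide)

theorem case7 {L : Subgroup Q} [L.Normal] [IsSimpleGroup L] (hs : ¬ Group.IsSolvable L) (h7 : 7 ∣ #|L|) :
    L = ⊤ ∧ ∃ n, n % 7 = 1 ∧ #|L| = n * 21 := by
  have cL := (card_subgroup_dvd_card L).trans (cQ f hf)
  obtain ⟨P⟩ := (inferInstance : Nonempty (Sylow 7 L))
  have hP : #|(P : Subgroup L)| = 7 := by
    obtain ⟨k, hk⟩ := P.2.exists_card_eq
    have a1 := P.dvd_card_of_dvd_card h7
    have a2 := (card_subgroup_dvd_card (P : Subgroup L)).trans cL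
    rw [hk] at a1 a2 ⊢
    have : k < 2 := lt_of_not_ge fun a => absurd ((pow_dvd_pow 7 a).trans a2) (by norm_num)
    interval_cases k <;> simp_all
  have hf' := hf.comp L.subtype_injective
  have a1 := n7 (f.comp L.subtype) hf' hP
  have a2 := (n7' (f.comp L.subtype) hf' hP).1
  have a3 := H6.relIndex_centralizer_ne_one (H6.perfect_of_simple fun a => hs (Group.isSolvable_of_comm a.1.1)) h7 P
  have a4 := H6.relIndex_centralizer_mul_card (P : Subgroup L)
  have a5 : #|𝐍((P : Subgroup L))| = 21 := by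
    rw [a2] at a4
    have := Nat.le_of_dvd (by norm_num) a1
    generalize #|𝐍((P : Subgroup L))| = n at *
    interval_cases n <;> omega
  refine ⟨?_, _, card_sylow_modEq_one 7 L, by rw [← H6.card_sylow_mul_card_normalizer P, a5]⟩
  have b1 := n7 f hf (P := (P : Subgroup L).map L.subtype) (by rw [card_map_of_injective L.subtype_injective, hP])
  have b2 := eq_of_cle (le_normalizer_map (H := (P : Subgroup L)) L.subtype) (by
    rw [card_map_of_injective L.subtype_injective, a5]; exact Nat.le_of_dvd (by norm_num) b1)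
  rw [eq_top_iff, ← P.normalizer_sup_eq_top, ← b2]
  exact sup_le (map_subtype_le _) le_rfl

theorem case60 {L : Subgroup Q} [L.Normal] [IsSimpleGroup L] (h : #|L| = 60) :
    Nonempty (Q ≃* alternatingGroup (Fin 5)) ∨ Nonempty (Q ≃* Perm (Fin 5)) ∨ #|pCore 3 Q| = 3 ∧
      (Nonempty (Q ⧸ pCore 3 Q ≃* alternatingGroup (Fin 5)) ∨ Nonempty (Q ⧸ pCore 3 Q ≃* Perm (Fin 5))) := by
  classical
  have na : ¬ IsMulCommutative L := H6.not_isMulCommutative_of_card (by rw [h]; norm_num)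
  obtain ⟨P⟩ := (inferInstance : Nonempty (Sylow 2 L))
  have n2 : (𝐍((P : Subgroup L))).index = 5 := by
    have a1 := H6.card_sylow_dvd_of (p := 2) (k := 2) (m := 15) h (by norm_num)
    have a2 := H6.two_mul_card_dvd_factorial_card_sylow (p := 2) na (by rw [h]; norm_num)
    have a3 := H6.relIndex_centralizer_ne_one (p := 2) (H6.perfect_of_simple na) (by rw [h]; norm_num) P
    have a4 := H6.card_sylow_mul_card_normalizer P
    have a5 : #|(P : Subgroup L)| = 2 ^ 2 := by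
      rw [P.card_eq_multiplicity, h, show 60 = 2 ^ 2 * 15 from rfl, Nat.factorization_mul (by norm_num) (by norm_num)]
      rw [Finsupp.add_apply, Nat.factorization_eq_zero_of_not_dvd (show ¬ 2 ∣ 15 by norm_num),
        Nat.Prime.factorization_pow Nat.prime_two]
      simp
    have a6 : Nat.card (Sylow 2 L) ≠ 15 := fun e => a3 (relIndex_eq_one.2 ((eq_of_cle le_normalizer (by rw [e] at a4; omega)).ge.trans
      fun x hx y hy => congrArg Subtype.val (IsPGroup.commutative_of_card_eq_prime_sq a5 ⟨y, hy⟩ ⟨x, hx⟩)))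
    refine P.card_eq_index_normalizer.symm.trans ?_
    have := Nat.le_of_dvd (by norm_num) a1
    rw [h] at a2
    generalize Nat.card (Sylow 2 L) = n at *
    interval_cases n <;> first | omega | exact absurd a2 (by decide)
  let M := 𝐍((P : Subgroup L).map L.subtype)
  have m1 : M.relIndex L = 5 := by
    rw [relIndex, subgroupOf_normalizer_eq (map_subtype_le _), subgroupOf, comap_map_eq_self_of_injective L.subtype_injective, n2]
  let _ := Fintype.ofFinite (Q ⧸ M)
  have m2 : Fintype.card (Q ⧸ M) = 5 := by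
    rw [← Nat.card_eq_fintype_card, ← index_eq_card, ← relIndex_top_right, ← P.normalizer_sup_eq_top, sup_comm,
      relIndex_sup_eq_relIndex le_normalizer_of_normal, m1]
  have d3 : ∀ N : Subgroup Q, N.Normal → ¬ L ≤ N → #|N| ∣ 3 ∧ N ⊓ L = ⊥ := fun N hN a => by
    have b : N ⊓ L = ⊥ := by
      rw [← subgroupOf_map_subtype, ((hN.subgroupOf L).eq_bot_or_eq_top).resolve_right fun e => a (subgroupOf_eq_top.1 e),
        Subgroup.map_bot]
    obtain ⟨x, hx⟩ := exists_prime_orderOf_dvd_card' (G := L) 5 (by rw [h]; norm_num)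
    rw [← Subgroup.orderOf_coe] at hx
    have c := csup (A := zpowers (x : Q)) (B := N) le_normalizer_of_normal
    have d : zpowers (x : Q) ⊔ N ≤ 𝐂[(x : Q)] := sup_le (zpowers_le.2 (mem_c1.2 rfl)) fun n hn =>
      mem_c1.2 (commute_of_normal_of_disjoint N L hN ‹_› (disjoint_iff.2 b) n x hn x.2)
    rw [inf_comm, le_bot_iff.1 ((inf_le_inf_left N (zpowers_le.2 x.2)).trans b.le), card_bot, Nat.card_zpowers, hx,
      mul_one] at c
    exact ⟨Nat.dvd_of_mul_dvd_mul_left (by norm_num : 0 < 5) (c ▸ (card_dvd_of_le d).trans (c5 f hf hx)), b⟩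
  let ψ := MulAction.toPermHom Q (Q ⧸ M)
  obtain ⟨k1, k2⟩ := d3 ψ.ker inferInstance fun a => by
    rw [← normalCore_eq_ker] at a
    rw [relIndex_eq_one.2 (a.trans M.normalCore_le)] at m1
    omega
  have : Nontrivial (Q ⧸ M) := Fintype.one_lt_card_iff_nontrivial.1 (by omega)
  have k3 : alternatingGroup (Q ⧸ M) ≤ (QuotientGroup.kerLift ψ).range := Perm.alternatingGroup_le_of_index_le_two (by
    have a1 := (QuotientGroup.kerLift ψ).range.index_mul_card
    have a2 : #|L.map ψ| ≤ #|(QuotientGroup.kerLift ψ).range| := cle (by rintro _ ⟨l, -, rfl⟩; exact ⟨l, rfl⟩)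
    rw [← relIndex_ker, relIndex, ← inf_subgroupOf_right, k2, bot_subgroupOf, index_bot, h] at a2
    rw [Nat.card_perm, Nat.card_eq_fintype_card (α := Q ⧸ M), m2, show Nat.factorial 5 = 120 from rfl] at a1
    nlinarith)
  have k4 := alt_or _ (QuotientGroup.kerLift_injective ψ) k3 m2
  rcases (Nat.dvd_prime f3.out).1 k1 with a | a
  · have e := (QuotientGroup.quotientMulEquivOfEq (card_eq_one.1 a)).trans QuotientGroup.quotientBot
    exact k4.imp (fun ⟨e'⟩ => ⟨e.symm.trans e'⟩) fun ⟨e'⟩ => Or.inl ⟨e.symm.trans e'⟩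
  have k5 : ψ.ker = pCore 3 Q := eq_of_cle (le_pCore inferInstance (IsPGroup.of_card (n := 1) a))
    ((Nat.le_of_dvd three_pos (d3 _ inferInstance fun b =>
      H6.not_isPGroup_of_simple na (pCore_isPGroup.to_le b)).1).trans_eq a.symm)
  have e := QuotientGroup.quotientMulEquivOfEq k5
  exact Or.inr (Or.inr ⟨k5 ▸ a, k4.imp (fun ⟨e'⟩ => ⟨e.symm.trans e'⟩) fun ⟨e'⟩ => ⟨e.symm.trans e'⟩⟩)

omit f hf in
theorem prq {L : Type*} [Group L] [Finite L] [IsSimpleGroup L] (hs : ¬ Group.IsSolvable L) {p a : ℕ} (hp : p = 5 ∨ p = 7)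
    (h : Nat.card L = p * 3 * 2 ^ a) : Nat.card L = 60 ∨ Nat.card L = 168 := by
  rcases S0998.result (fun a => hs inferInstance) p 2 3 a (by rcases hp with rfl | rfl <;> norm_num) Nat.prime_two f3.out
    (by omega) (by omega) (by omega) h with ⟨F, _, _, hF, ⟨e⟩⟩ | ⟨F, _, _, hF, ⟨e⟩⟩ <;>
  · have := H5.card_of_psl (by rw [hF]; decide) e
    rw [hF] at this
    omega

/-- the nonsolvable subgroups of `A₈` with `O₂ = 1` -/
theorem classify (hns : ¬ Group.IsSolvable Q) (h2 : pCore 2 Q = ⊥) :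
    Nonempty (Q ≃* Matrix.ProjectiveSpecialLinearGroup (Fin 3) (ZMod 2)) ∨
      (∃ n : ℕ, 5 ≤ n ∧ n ≤ 8 ∧ Nonempty (Q ≃* alternatingGroup (Fin n))) ∨
      (∃ n : ℕ, 5 ≤ n ∧ n ≤ 7 ∧ Nonempty (Q ≃* Perm (Fin n))) ∨ #|pCore 3 Q| = 3 ∧
      (Nonempty (Q ⧸ pCore 3 Q ≃* alternatingGroup (Fin 5)) ∨ Nonempty (Q ⧸ pCore 3 Q ≃* Perm (Fin 5))) := by
  obtain ⟨L, _, _, hs⟩ := exists_simple f hf hns h2
  by_cases h9 : 9 ∣ #|L|
  · obtain ⟨n, h6, h8, e | ⟨h7, e⟩⟩ := case9 f hf h9
    exacts [Or.inr (Or.inl ⟨n, by omega, h8, e⟩), Or.inr (Or.inr (Or.inl ⟨n, by omega, h7, e⟩))]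
  have key : #|L| = 60 ∨ #|L| = 168 := by
    obtain ⟨a, b, c, d, ha, hb, hc, hd, e⟩ := fac (f.comp L.subtype) (hf.comp L.subtype_injective)
    have h7 := fun a => (case7 f hf hs a).2
    interval_cases b
    · interval_cases d
      · exact absurd (isSolvable_of_card_eq_pow_mul_pow Nat.prime_two f5.out (by simpa using e)) hs
      · obtain ⟨n, -, e'⟩ := h7 (e ▸ dvd_mul_left _ _)
        interval_cases a <;> interval_cases c <;> omega
    · interval_cases c <;> interval_cases d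
      · exact absurd (isSolvable_of_card_eq_pow_mul_pow Nat.prime_two f3.out (b := 1) (by simpa using e)) hs
      · exact prq hs (Or.inr rfl) (a := a) (by rw [e]; ring)
      · exact prq hs (Or.inl rfl) (a := a) (by rw [e]; ring)
      · obtain ⟨n, e'', e'⟩ := h7 (e ▸ dvd_mul_left _ _)
        interval_cases a <;> omega
    · exact absurd ⟨2 ^ a * 5 ^ c * 7 ^ d, by rw [e]; ring⟩ h9
  rcases key with h | h
  · rcases case60 f hf h with e | e | e
    exacts [Or.inr (Or.inl ⟨5, le_rfl, by omega, e⟩), Or.inr (Or.inr (Or.inl ⟨5, le_rfl, by omega, e⟩)),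
      Or.inr (Or.inr (Or.inr e))]
  · obtain rfl := (case7 f hf hs (by rw [h]; norm_num)).1
    obtain ⟨e⟩ := H5.equiv_PSL3_of_card h
    exact Or.inl ⟨topEquiv.symm.trans e⟩

end Cfsg.Agent.H8.A8
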