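import Cfsg.Agent.H8.A8a
import Cfsg.Agent.FT.I01
import Cfsg.Agent.H8.PxQ
import Cfsg.Agent.WA.Rw1

/-! An extension of `2⁴` by `S₆` or `A₈` has sectional rank at least five. -/

set_option autoImplicit false
set_option linter.unusedSectionVars false
set_option linter.unusedVariables false

namespace Cfsg.Agent.H8.A8

open Subgroup Equiv Cfsg.Agent.FT Cfsg.Agent.L0 Cfsg.Agent.H8 Cfsg.Agent.WA.Rw
open Cfsg.Agent.H7 (opp)
open scoped commutatorElement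

universe u

theorem sec_surj {X Y : Type*} [Group X] [Group Y] {p k : ℕ} (h : SectionalPRankLE p k X) (f : X →* Y)
    (hf : Function.Surjective f) : SectionalPRankLE p k Y := fun H N _ A hA hp => by
  let g := (QuotientGroup.mk' N).comp (f.subgroupComap H)
  let e := QuotientGroup.quotientKerEquivOfSurjective g
    ((QuotientGroup.mk'_surjective N).comp (f.subgroupComap_surjective_of_surjective H hf))
  have := h _ g.ker (A.comap e.toMonoidHom) ⟨⟨fun a b => Subtype.ext (e.injective (by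
    simp only [coe_mul, map_mul]
    exact congrArg Subtype.val (hA.1.1 ⟨_, a.2⟩ ⟨_, b.2⟩)))⟩⟩ fun a ha => e.injective (by
      rw [map_pow, map_one]; exact hp _ ha)
  rwa [comap_equiv_eq_map_symm', card_map_of_injective e.symm.injective] at this

variable {Y : Type u} {Q : Type*} [Group Y] [Finite Y] [Group Q] [Finite Q] {π : Y →* Q} {a b c s x y z : Y}

theorem nk (y : Y) : y ∈ 𝐍(π.ker) := le_normalizer_of_normal (mem_top y)

/-- `V = ker π` is elementary abelian of order at most `16` and the elements of order `5` act faithfully -/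
structure Ex (π : Y →* Q) : Prop where
  sq : ∀ v ∈ π.ker, v * v = 1
  card : #|π.ker| ≤ 16
  faith : ∀ s, s ^ 5 = 1 → s ∈ 𝐂(π.ker) → π s = 1

theorem Ex.iv (h : Ex π) (ha : a ∈ π.ker) : a⁻¹ = a := inv_eq_of_mul_eq_one_right (h.sq a ha)

theorem Ex.cm (h : Ex π) (ha : a ∈ π.ker) (hb : b ∈ π.ker) : a * b = b * a := by
  rw [← h.iv (mul_mem ha hb), mul_inv_rev, h.iv ha, h.iv hb]

theorem Ex.congr (h : Ex π) (e : π a = π b) : π.ker ⊓ 𝐂[a] = π.ker ⊓ 𝐂[b] := by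
  have key : ∀ a b : Y, π a = π b → π.ker ⊓ 𝐂[a] ≤ π.ker ⊓ 𝐂[b] := fun a b e x hx => ⟨hx.1, mem_c1.2 (by
    have := h.cm hx.1 (show a⁻¹ * b ∈ π.ker by rw [MonoidHom.mem_ker, map_mul, map_inv, e, inv_mul_cancel])
    rw [← mul_inv_cancel_left a b, ← mul_assoc, mem_c1.1 hx.2, mul_assoc, this, mul_assoc a])⟩
  exact le_antisymm (key a b e) (key b a e.symm)

theorem Ex.five (h : Ex π) (hs : orderOf (π s) = 5) : #|π.ker| = 16 ∧ π.ker ⊓ 𝐂[s] = ⊥ := by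
  have := f5
  have h1 : π s ^ 5 = 1 := hs ▸ pow_orderOf_eq_one _
  have h2 : (s ^ 6) ^ 5 = 1 := by
    rw [← pow_mul, show 6 * 5 = (5 + 5) * 3 from rfl, pow_mul, pow_add, h.sq _ (by rwa [MonoidHom.mem_ker, map_pow]), one_pow]
  have h3 : π (s ^ 6) = π s := by rw [map_pow, pow_succ, h1, one_mul]
  have h4 := card_modEq_card_cent (q := 5) (A := zpowers (s ^ 6)) (K := π.ker)
    (H5.isPGroup_of_forall_pow_eq_one fun _ ⟨i, hi⟩ => by
      rw [← hi, ← zpow_natCast, ← zpow_mul, mul_comm, zpow_mul, zpow_natCast, h2, one_zpow]) le_normalizer_of_normal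
  have h5 : 𝐂(zpowers (s ^ 6)) = 𝐂[s ^ 6] := by rw [zpowers_eq_closure, centralizer_closure]
  rw [h5, h.congr h3] at h4
  have h6 : ¬ π.ker ≤ π.ker ⊓ 𝐂[s] := fun e => by
    rw [← h3, h.faith _ h2 fun v hv => mem_c1.1 ((e.trans (h.congr h3).ge) hv).2, orderOf_one] at hs
    omega
  obtain ⟨v, hv, v1⟩ := SetLike.not_le_iff_exists.1 h6
  have h7 := clt inf_le_left hv v1
  have pg : IsPGroup 2 π.ker := H5.isPGroup_of_forall_pow_eq_one fun x hx => by rw [pow_two, h.sq x hx]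
  obtain ⟨i, hi⟩ := two_pow pg le_rfl
  obtain ⟨j, hj⟩ := two_pow pg (A := π.ker ⊓ 𝐂[s]) inf_le_left
  have h8 := h.card
  rw [← card_eq_one]
  rw [hi, hj] at h4 h7 ⊢
  rw [hi] at h8
  have : i ≤ 4 := (Nat.pow_le_pow_iff_right (by norm_num : 1 < 2)).1 h8
  have : j ≤ 4 := (Nat.pow_le_pow_iff_right (by norm_num : 1 < 2)).1 (by omega)
  unfold Nat.ModEq at h4
  interval_cases i <;> interval_cases j <;> omega

theorem Ex.cv (h : Ex π) (ha : π a * π a = 1) (hx : x ∈ π.ker) : ⁅a, x⁆ ∈ π.ker ⊓ 𝐂[a] := by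
  have m : ⁅a, x⁆ ∈ π.ker := comm_mem_r (nk a) hx
  refine ⟨m, mem_c1.2 (mul_inv_eq_iff_eq_mul.1 ?_).symm⟩
  have e := h.cm (show a * a ∈ π.ker by rwa [MonoidHom.mem_ker, map_mul]) hx
  refine Eq.trans ?_ (h.iv m)
  calc _ = a * a * x * (a * a)⁻¹ * (a * x⁻¹ * a⁻¹) := by simp only [commutatorElement_def]; group
    _ = _ := by rw [e]; simp only [commutatorElement_def]; group

theorem Ex.c4 (h : Ex π) (ha : π a * π a = 1) (hb : π b * π b = 1) (h5 : orderOf (π a * π b) = 5) :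
    #|π.ker| = 16 ∧ #|(π.ker ⊓ 𝐂[a] : Subgroup Y)| = 4 ∧ π.ker ⊓ 𝐂[a] ≠ π.ker ⊓ 𝐂[b] := by
  obtain ⟨h16, h0⟩ := h.five (s := a * b) (by rwa [map_mul])
  have k : ∀ a, π a * π a = 1 → 4 ≤ #|(π.ker ⊓ 𝐂[a] : Subgroup Y)| := fun a ha => by
    have := cnt_c' (Y := π.ker) (L := π.ker ⊓ 𝐂[a]) fun y hy => h.cv ha hy
    nlinarith
  have e : π.ker ⊓ 𝐂[a] ⊓ (π.ker ⊓ 𝐂[b]) = ⊥ := le_bot_iff.1 (h0 ▸ fun x hx => ⟨hx.1.1, mem_c1.2 (by
    rw [← mul_assoc, mem_c1.1 hx.1.2, mul_assoc, mem_c1.1 hx.2.2, mul_assoc])⟩)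
  have e1 := csup (A := π.ker ⊓ 𝐂[a]) (B := π.ker ⊓ 𝐂[b]) fun x hx => c_le_n fun y hy => h.cm hy.1 hx.1
  have e2 := cle (sup_le (inf_le_left : π.ker ⊓ 𝐂[a] ≤ _) (inf_le_left : π.ker ⊓ 𝐂[b] ≤ _))
  have := k a ha
  have := k b hb
  rw [e, card_bot] at e1
  refine ⟨h16, by nlinarith, fun e' => ?_⟩
  rw [← e', inf_idem] at e
  rw [e, card_bot] at *
  omega

theorem Ex.surj (h : Ex π) (h16 : #|π.ker| = 16) (ha : π a * π a = 1) (h4 : #|(π.ker ⊓ 𝐂[a] : Subgroup Y)| = 4)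
    (hx : x ∈ π.ker ⊓ 𝐂[a]) : ∃ v ∈ π.ker, ⁅a, v⁆ = x := by
  let U : Subgroup Y :=
    { carrier := {x | ∃ v ∈ π.ker, ⁅a, v⁆ = x}
      one_mem' := ⟨1, one_mem _, by simp⟩
      mul_mem' := by
        rintro _ _ ⟨u, hu, rfl⟩ ⟨v, hv, rfl⟩
        exact ⟨u * v, mul_mem hu hv, by rw [comm_mul_r, h.cm hu (h.cv ha hv).1, mul_inv_cancel_right]⟩
      inv_mem' := by
        rintro _ ⟨u, hu, rfl⟩
        exact ⟨u, hu, (h.iv (h.cv ha hu).1).symm⟩ }
  have := cnt_c' (Y := π.ker) (e := a) (L := U) fun y hy => ⟨y, hy, rfl⟩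
  exact (eq_of_cle (A := U) (by rintro _ ⟨u, hu, rfl⟩; exact h.cv ha hu) (by nlinarith)).ge hx

theorem Ex.sqm (h : Ex π) (hx : x ∈ π.ker) (a : Y) : x * a * (x * a) = ⁅a, x⁆ * (a * a) := by
  rw [commutatorElement_def, ← h.cm (inv_mem hx) (conj_mem' (nk a) hx), h.iv hx]; group

theorem Ex.lift (h : Ex π) (h16 : #|π.ker| = 16) (ha : a * a = 1) (h4 : #|(π.ker ⊓ 𝐂[a] : Subgroup Y)| = 4)
    (hy : π y * π a = π a * π y) : ∃ y', π y' = π y ∧ y' * a = a * y' := by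
  have m : ⁅y, a⁆ ∈ π.ker := by rw [MonoidHom.mem_ker, map_commutatorElement]; exact comm1.2 hy
  have e := h.sqm m a
  rw [← conj_eq_comm, conj_mul, ha, mul_one, mul_inv_cancel, mul_one] at e
  obtain ⟨v, hv, e1⟩ := h.surj h16 (by rw [← map_mul, ha, map_one]) h4 ⟨m, mem_c1.2 (comm1.1 e.symm).symm⟩
  refine ⟨v * y, by rw [map_mul, show π v = 1 from hv, one_mul], mul_inv_eq_iff_eq_mul.1 ?_⟩
  calc _ = v * ⁅y, a⁆ * a * v⁻¹ := by simp only [commutatorElement_def]; group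
    _ = _ := by rw [h.cm hv m, ← e1]; simp only [commutatorElement_def]; group

theorem Ex.pair (h : Ex π) (hr : SectionalPRankLE 2 4 Y) (h16 : #|π.ker| = 16) (ha : π a * π a = 1) (hb : π b * π b = 1)
    (hc : π c * π c = 1) (ab : π b * π a = π a * π b) (ac : π c * π a = π a * π c) (bc : π c * π b = π b * π c)
    (n1 : π a ≠ 1) (n2 : π b ∉ zpowers (π a)) (n3 : π c ∉ zpowers (π a) ⊔ zpowers (π b))
    (a4 : #|(π.ker ⊓ 𝐂[a] : Subgroup Y)| = 4) (b4 : #|(π.ker ⊓ 𝐂[b] : Subgroup Y)| = 4) :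
    π.ker ⊓ 𝐂[a] = π.ker ⊓ 𝐂[b] := by
  have sk : ∀ y, π y * π y = 1 → y * y ∈ π.ker := fun y hy => by rwa [MonoidHom.mem_ker, map_mul]
  obtain ⟨v, hv, e⟩ := h.surj h16 ha a4 ⟨sk a ha, mem_c1.2 (mul_assoc a a a)⟩
  have a1 := h.sqm hv a
  have a2 : π (v * a) = π a := by rw [map_mul, show π v = 1 from hv, one_mul]
  rw [e, h.sq _ (sk a ha)] at a1
  rw [← h.congr a2] at *
  rw [← a2] at ha ab ac n1 n2 n3
  generalize v * a = a at *
  obtain ⟨b, e1, ab'⟩ := h.lift h16 a1 a4 ab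
  obtain ⟨c, e2, ac'⟩ := h.lift h16 a1 a4 ac
  rw [← h.congr e1] at *
  rw [← e1] at hb ab bc n2 n3
  rw [← e2] at hc ac bc n3
  clear e1 e2 a2 e hv
  by_contra ne
  have nm : ∀ y u : Y, π y * π u = π u * π y → y ∈ 𝐍((π.ker ⊓ 𝐂[u] : Subgroup Y)) := fun y u e => by
    rw [← cj_eq_self_iff, cj_inf, cj_eq_self (nk y), cj_centralizer_singleton]
    exact h.congr (by rw [map_mul, map_mul, e, map_inv, mul_inv_cancel_right])
  set A := π.ker ⊓ 𝐂[a] with hA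
  set B := π.ker ⊓ 𝐂[b] with hB
  obtain ⟨x, hx, x1⟩ := SetLike.not_le_iff_exists.1 fun e : A ≤ B => ne (eq_of_cle e (by omega))
  obtain ⟨x', hx', x2⟩ := SetLike.not_le_iff_exists.1 fun e : B ≤ A => ne (eq_of_cle e (by omega)).symm
  have z1 : 2 * #|(A ⊓ B : Subgroup Y)| ≤ #|A| := clt inf_le_left hx fun e => x1 e.2
  have z2 : 2 * #|(⊥ : Subgroup Y)| ≤ #|(A ⊓ B : Subgroup Y)| := clt bot_le ⟨comm_mem_r (nm b a ab) hx, h.cv hb hx.1⟩ fun e =>
    x1 ⟨hx.1, mem_c1.2 (comm1.1 e).symm⟩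
  rw [card_bot] at z2
  have nz : ∀ y, y ∈ 𝐍(A) → y ∈ 𝐍(B) → y ∈ 𝐍((A ⊓ B : Subgroup Y)) := fun y h1 h2 =>
    inf_normalizer_le_normalizer_inf ⟨h1, h2⟩
  have k : ∀ P R : Subgroup Y, P ≤ R → R ≤ π.ker → #|R| ≤ 2 * #|P| → ∀ y ∈ 𝐍(P), y ∈ 𝐍(R) → ∀ x ∈ R, ⁅y, x⁆ ∈ P :=
    fun P R h1 h2 h3 y y1 y2 x hx => by
      by_cases e : x ∈ P
      · exact comm_mem_r y1 e
      · exact idx2 h1 h3 (conj_mem' y2 hx) (inv_mem hx) (fun e' => e (by simpa [mul_assoc] using conj_mem'' y1 e'))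
          fun e' => e (inv_mem_iff.1 e')
  have cz : ∀ y ∈ 𝐍((A ⊓ B : Subgroup Y)), ∀ w ∈ A ⊓ B, y * w * y⁻¹ = w := fun y hy w hw => mul_inv_eq_iff_eq_mul.2 (comm1.1
    (k ⊥ (A ⊓ B) bot_le (inf_le_left.trans inf_le_left) (by rw [card_bot]; omega) y (le_normalizer_of_normal (mem_top y)) hy w hw))
  have nb := nz b (nm b a ab) (nm b b rfl)
  have nc := nz c (nm c a ac) (nm c b bc)
  have bb : b * b ∈ A ⊓ B := ⟨⟨sk b hb, mem_c1.2 (by rw [mul_assoc, ab', ← mul_assoc, ab', mul_assoc])⟩,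
    sk b hb, mem_c1.2 (mul_assoc b b b)⟩
  have m : ⁅c, b⁆ ∈ π.ker := by rw [MonoidHom.mem_ker, map_commutatorElement]; exact comm1.2 bc
  have cb : ⁅c, b⁆ ∈ A ⊓ B := by
    have e := h.sqm m b
    rw [← conj_eq_comm, conj_mul, cz c nc _ bb, right_eq_mul] at e
    exact ⟨⟨m, comm_mem_r (le_normalizer (mem_c1.2 ac')) (mem_c1.2 ab')⟩, m, mem_c1.2 (comm1.1 e).symm⟩
  have cc : c * c ∈ A ⊓ B := ⟨⟨sk c hc, mul_mem (mem_c1.2 ac') (mem_c1.2 ac')⟩, sk c hc, mem_c1.2 (by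
    refine mul_inv_eq_iff_eq_mul.1 ?_
    calc _ = c * ⁅c, b⁆ * c⁻¹ * ⁅c, b⁆ * b := by simp only [commutatorElement_def]; group
      _ = _ := by rw [cz c nc _ cb, h.sq _ m, one_mul])⟩
  let S : Set Y := {y | y ∈ A ∨ y ∈ B ∨ y = a ∨ y = b ∨ y = c}
  have s0 : ∀ y ∈ S, y ∈ 𝐍(A) ∧ y ∈ 𝐍(B) := by
    rintro y (e | e | rfl | rfl | rfl)
    exacts [⟨nm _ _ (by rw [show π y = 1 from e.1]; simp), nm _ _ (by rw [show π y = 1 from e.1]; simp)⟩,
      ⟨nm _ _ (by rw [show π y = 1 from e.1]; simp), nm _ _ (by rw [show π y = 1 from e.1]; simp)⟩,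
      ⟨nm _ _ rfl, nm _ _ ab.symm⟩, ⟨nm _ _ ab, nm _ _ rfl⟩, ⟨nm _ _ ac, nm _ _ bc⟩]
  have s1 : ∀ y ∈ S, y ∈ 𝐍((A ⊓ B : Subgroup Y)) := fun y hy => nz y (s0 y hy).1 (s0 y hy).2
  have s2 : ∀ y ∈ S, y * y ∈ A ⊓ B := by
    rintro y (e | e | rfl | rfl | rfl)
    exacts [h.sq y e.1 ▸ one_mem _, h.sq y e.1 ▸ one_mem _, a1 ▸ one_mem _, bb, cc]
  have s3 : ∀ y ∈ S, ∀ u ∈ S, ⁅y, u⁆ ∈ A ⊓ B := by
    have sy : ∀ y u : Y, ⁅y, u⁆ ∈ A ⊓ B → ⁅u, y⁆ ∈ A ⊓ B := fun y u e => by simpa using inv_mem e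
    have kA := fun y hy => k (A ⊓ B) A inf_le_left inf_le_left (by omega) y (s1 y hy) (s0 y hy).1
    have kB := fun y hy => k (A ⊓ B) B inf_le_right inf_le_left (by omega) y (s1 y hy) (s0 y hy).2
    have o : ∀ y u : Y, y * u = u * y → ⁅y, u⁆ ∈ A ⊓ B := fun y u e => comm1.2 e ▸ one_mem _
    intro y hy u hu
    rcases id hu with e | e | hu'
    exacts [kA y hy u e, kB y hy u e, by
      rcases hy with e | e | hy'
      exacts [sy _ _ (kA u hu y e), sy _ _ (kB u hu y e), by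
        rcases hy' with rfl | rfl | rfl <;> rcases hu' with rfl | rfl | rfl
        exacts [o _ _ rfl, o _ _ ab'.symm, o _ _ ac'.symm, o _ _ ab', o _ _ rfl, sy _ _ cb, o _ _ ac', cb, o _ _ rfl]]]
  have cm : IsMulCommutative (closure (coset (A ⊓ B) '' S)) := isMulCommutative_closure (by
    rintro _ ⟨y, hy, rfl⟩ _ ⟨u, hu, rfl⟩
    rw [← comm1, ← coset_commutator (s1 y hy) (s1 u hu)]
    exact coset_eq_one (s3 y hy u hu))
  have r := hr 𝐍((A ⊓ B : Subgroup Y)) ((A ⊓ B).subgroupOf _) (closure (coset (A ⊓ B) '' S)) cm fun q hq => by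
    induction hq using closure_induction with
    | mem q hq =>
      obtain ⟨y, hy, rfl⟩ := hq
      rw [pow_two, ← coset_mul (s1 y hy) (s1 y hy)]
      exact coset_eq_one (s2 y hy)
    | one => exact one_pow 2
    | mul p q hp hq i1 i2 =>
      rw [Commute.mul_pow (congrArg Subtype.val (cm.1.1 ⟨p, hp⟩ ⟨q, hq⟩)), i1, i2, one_mul]
    | inv p hp i => rw [inv_pow, i, inv_one]
  have c0 := card_copre (closure (coset (A ⊓ B) '' S))
  have mK : ∀ y ∈ S, y ∈ copre (A ⊓ B) (closure (coset (A ⊓ B) '' S)) := fun y hy =>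
    mem_copre.2 ⟨s1 y hy, subset_closure ⟨y, hy, rfl⟩⟩
  generalize copre (A ⊓ B) (closure (coset (A ⊓ B) '' S)) = K at *
  have c1 := clt (A := A) (B := K ⊓ π.ker) (fun y hy => ⟨mK y (Or.inl hy), hy.1⟩) ⟨mK _ (Or.inr (Or.inl hx')), hx'.1⟩ x2
  have c2 := clt (A := K ⊓ π.ker) (B := K ⊓ (zpowers (π a)).comap π) (inf_le_inf_left _ (ker_le_comap _ _))
    ⟨mK a (by simp [S]), mem_zpowers _⟩ fun e => n1 e.2
  have c3 := clt (A := K ⊓ (zpowers (π a)).comap π) (B := K ⊓ (zpowers (π a) ⊔ zpowers (π b)).comap π)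
    (inf_le_inf_left _ (comap_mono le_sup_left)) ⟨mK b (by simp [S]), mem_sup_right (mem_zpowers _)⟩ fun e => n2 e.2
  have c4 := clt (A := K ⊓ (zpowers (π a) ⊔ zpowers (π b)).comap π) inf_le_left (mK c (by simp [S])) fun e => n3 e.2
  have : #|closure (coset (A ⊓ B) '' S)| * #|(A ⊓ B : Subgroup Y)| ≤ 2 ^ 4 * 2 := Nat.mul_le_mul r (by omega)
  omega

/-- `a`, `p` are involutions with product of order `5` -/
def I5 (a p : Q) : Prop := a * a = 1 ∧ p * p = 1 ∧ (a * p) ^ 5 = 1 ∧ a * p ≠ 1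

/-- `a`, `b`, `c` generate an elementary abelian group of order `8` -/
def E8 (a b c : Q) : Prop := c * c = 1 ∧ b * a = a * b ∧ c * a = a * c ∧ c * b = b * c ∧ a ≠ 1 ∧ b ≠ 1 ∧ b ≠ a ∧
  c ≠ 1 ∧ c ≠ a ∧ c ≠ b ∧ c ≠ a * b

instance [DecidableEq Q] (a p : Q) : Decidable (I5 a p) := by unfold I5; infer_instance
instance [DecidableEq Q] (a b c : Q) : Decidable (E8 a b c) := by unfold E8; infer_instance

theorem Ex.no (h : Ex π) (hr : SectionalPRankLE 2 4 Y) (hs : Function.Surjective π) (a p c : ℕ → Q)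
    (h1 : ∀ i < 5, I5 (a i) (p i)) (h2 : ∀ i < 4, E8 (a i) (a (i + 1)) (c i)) (h3 : p 0 = a 4) : False := by
  have := f5
  choose σ hσ using hs
  have k : ∀ i < 5, _ := fun i hi => h.c4 (a := σ (a i)) (b := σ (p i)) (by rw [hσ]; exact (h1 i hi).1)
    (by rw [hσ]; exact (h1 i hi).2.1) (by rw [hσ, hσ]; exact orderOf_eq_prime (h1 i hi).2.2.1 (h1 i hi).2.2.2)
  have k2 : ∀ i < 4, π.ker ⊓ 𝐂[σ (a i)] = π.ker ⊓ 𝐂[σ (a (i + 1))] := fun i hi => by
    obtain ⟨e1, e2, e3, e4, e5, e6, e7, e8, e9, e10, e11⟩ := h2 i hi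
    have b1 := (h1 i (by omega)).1
    have b2 := (h1 (i + 1) (by omega)).1
    refine h.pair (c := σ (c i)) hr (k 0 (by omega)).1 ?_ ?_ ?_ ?_ ?_ ?_ ?_ ?_ ?_ (k i (by omega)).2.1
      (k (i + 1) (by omega)).2.1 <;> simp only [hσ] <;> try assumption
    · exact fun e => (mem_z' b1 e).elim e6 e7
    · intro e
      obtain ⟨u, hu, v, hv, e⟩ := (mem_sup' (zpowers_le.2 (c_le_n fun y hy => by
        rcases mem_z' b2 hy with rfl | rfl
        exacts [by simp, e2]))).1 e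
      rcases mem_z' b1 hu with rfl | rfl <;> rcases mem_z' b2 hv with rfl | rfl <;> simp_all
  exact (k 0 (by omega)).2.2 (h3 ▸ (k2 0 (by omega)).trans ((k2 1 (by omega)).trans ((k2 2 (by omega)).trans (k2 3 (by omega)))))

theorem Ex.equiv (h : Ex π) {R : Type*} [Group R] (e : Q ≃* R) : Ex (e.toMonoidHom.comp π) := by
  have k : (e.toMonoidHom.comp π).ker = π.ker := by ext; simp
  exact ⟨k ▸ h.sq, k ▸ h.card, fun s a b => by simp [h.faith s a (k ▸ b)]⟩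

theorem Ex.s6 (h : Ex π) (hr : SectionalPRankLE 2 4 Y) (hs : Function.Surjective π) (e : Q ≃* Perm (Fin 6)) : False :=
  (h.equiv e).no hr (e.surjective.comp hs)
    (fun i => [swap 0 1 * swap 2 3, swap 0 1 * swap 4 5, swap 0 4 * swap 1 5, swap 0 4 * swap 2 3, swap 0 2 * swap 3 4].getD i 1)
    (fun i => [swap 0 2 * swap 3 4, swap 0 4 * swap 5 2, swap 0 1 * swap 5 2, swap 0 2 * swap 3 1, swap 0 1 * swap 2 3].getD i 1)
    (fun i => [swap 0 1, swap 2 3, swap 0 4, swap 1 5].getD i 1) (by decide +kernel) (by decide +kernel) rfl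

/-- a product of two transpositions -/
def sw (a b c d : Fin 8) (h1 : a ≠ b := by decide) (h2 : c ≠ d := by decide) : alternatingGroup (Fin 8) :=
  ⟨swap a b * swap c d, by simp [Perm.sign_swap h1, Perm.sign_swap h2]⟩

theorem Ex.a8 (h : Ex π) (hr : SectionalPRankLE 2 4 Y) (hs : Function.Surjective π) (e : Q ≃* alternatingGroup (Fin 8)) :
    False :=
  (h.equiv e).no hr (e.surjective.comp hs)
    (fun i => [sw 0 1 2 3, sw 0 1 4 5, sw 0 4 1 5, sw 0 4 2 3, sw 0 2 3 4].getD i 1)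
    (fun i => [sw 0 2 3 4, sw 0 4 5 2, sw 0 1 5 2, sw 0 2 3 1, sw 0 1 2 3].getD i 1)
    (fun i => [sw 0 1 6 7, sw 2 3 6 7, sw 0 4 6 7, sw 1 5 6 7].getD i 1) (by decide +kernel) (by decide +kernel) rfl

theorem ex_of {X : Type u} [Group X] [Finite X] (hc : 𝐂(pCore 2 X) ≤ pCore 2 X) (hr : SectionalPRankLE 2 4 X) :
    ∃ (Y : Type u) (_ : Group Y) (_ : Finite Y) (π : Y →* X ⧸ pCore 2 X),
      Ex π ∧ Function.Surjective π ∧ SectionalPRankLE 2 4 Y := by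
  have hP : IsPGroup 2 (pCore 2 X) := pCore_isPGroup
  have : (Phi (pCore 2 X)).Normal := normalizer_eq_top_iff.1 (top_le_iff.1 (le_normalizer_of_normal.trans (normalizer_le_Phi _)))
  let π := QuotientGroup.lift (Phi (pCore 2 X)) (QuotientGroup.mk' (pCore 2 X)) fun x hx =>
    (QuotientGroup.eq_one_iff x).2 (Phi_le _ hx)
  have hY := sec_surj hr _ (QuotientGroup.mk'_surjective (Phi (pCore 2 X)))
  have mk : ∀ x : X, (x : X ⧸ Phi (pCore 2 X)) ∈ π.ker ↔ x ∈ pCore 2 X := fun x => QuotientGroup.eq_one_iff x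
  have sq : ∀ v ∈ π.ker, v * v = 1 := fun v hv => by
    obtain ⟨x, rfl⟩ := QuotientGroup.mk_surjective v
    exact (QuotientGroup.eq_one_iff (x * x)).2 (pow_two x ▸ pow_mem_Phi hP ((mk x).1 hv))
  refine ⟨_, inferInstance, inferInstance, π, ⟨sq, ?_, fun s h5 hs => ?_⟩, fun q => ?_, hY⟩
  · have iv : ∀ v ∈ π.ker, v⁻¹ = v := fun v hv => inv_eq_of_mul_eq_one_right (sq v hv)
    have := sec_surj hY (MonoidHom.id _) Function.surjective_id π.ker ⊥ ⊤ ⟨⟨fun a b => Subtype.ext (by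
      obtain ⟨a, -⟩ := a
      obtain ⟨b, -⟩ := b
      obtain ⟨a, rfl⟩ := QuotientGroup.mk_surjective a
      obtain ⟨b, rfl⟩ := QuotientGroup.mk_surjective b
      exact congrArg QuotientGroup.mk (Subtype.ext (by
        rw [coe_mul, ← iv _ (mul_mem a.2 b.2), mul_inv_rev, iv _ a.2, iv _ b.2, coe_mul])))⟩⟩ fun a _ => by
      obtain ⟨a, rfl⟩ := QuotientGroup.mk_surjective a
      exact congrArg QuotientGroup.mk (show a ^ 2 = 1 from Subtype.ext (by simpa [pow_two] using sq _ a.2))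
    rwa [card_top, ← index_eq_card, index_bot] at this
  · obtain ⟨x, rfl⟩ := QuotientGroup.mk_surjective s
    obtain ⟨k, hk⟩ := hP ⟨x ^ 5, Phi_le _ ((QuotientGroup.eq_one_iff _).1 h5)⟩
    replace hk : (x ^ 2 ^ k) ^ 5 = 1 := by rw [← pow_mul, mul_comm, pow_mul]; exact congrArg Subtype.val hk
    obtain ⟨j, hj⟩ := hP.exists_card_eq
    have co : CopAct (zpowers (x ^ 2 ^ k)) (pCore 2 X) := ⟨le_normalizer_of_normal, by
      rw [Nat.card_zpowers, hj]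
      exact Nat.Coprime.pow_right _ (Nat.Coprime.coprime_dvd_left (orderOf_dvd_of_pow_eq_one hk) (by norm_num)),
      Or.inl inferInstance⟩
    have a := co.le_centralizer_of_commutator_le_frattini (commutator_le.2 fun y hy u hu => by
      refine (QuotientGroup.eq_one_iff (N := Phi (pCore 2 X)) _).1 ?_
      rw [← QuotientGroup.mk'_apply, map_commutatorElement, comm1]
      exact (zpowers_le (H := 𝐂(π.ker).comap (QuotientGroup.mk' _))).2 (pow_mem hs _) hu _ ((mk y).2 hy))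
    have b : π x ^ 2 ^ k = 1 := (map_pow π _ _).symm.trans ((mk _).2 (hc (le_centralizer_iff.1 a (mem_zpowers _))))
    have c : π x ^ 5 = 1 := by rw [← map_pow, h5, map_one]
    exact orderOf_eq_one_iff.1 (Nat.eq_one_of_dvd_coprimes (Nat.Coprime.pow_left k (by norm_num : Nat.Coprime 2 5))
      (orderOf_dvd_of_pow_eq_one b) (orderOf_dvd_of_pow_eq_one c))
  · obtain ⟨x, rfl⟩ := QuotientGroup.mk_surjective q
    exact ⟨x, rfl⟩

end Cfsg.Agent.H8.A8
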