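import Cfsg.Agent.H8.Factor
import Cfsg.Agent.H7.Local

/-!
# Local balance implies balance
-/

set_option autoImplicit false

namespace Cfsg.Agent.H8

open Subgroup Cfsg.Agent.L0
open scoped commutatorElement

variable {G : Type*} [Group G]

/-- Automorphisms induced on the central quotient. -/
def centerAut (K : Type*) [Group K] : MulAut K →* MulAut (K ⧸ center K) where
  toFun e := QuotientGroup.congr _ _ e (characteristic_iff_map_eq.mp inferInstance e)
  map_one' := by
    ext q
    induction q using QuotientGroup.induction_on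
    rfl
  map_mul' e f := by
    ext q
    induction q using QuotientGroup.induction_on
    rfl

/-- The action of `N_G(L)` on `L / Z(L)`. -/
def actQ (L : Subgroup G) : normalizer (L : Set G) →* MulAut (L ⧸ center L) :=
  (centerAut L).comp L.normalizerMonoidHom

theorem actQ_mk (L : Subgroup G) (g : normalizer (L : Set G)) (l : L) :
    actQ L g (l : L ⧸ center L) =
      ((⟨g * l * (g : G)⁻¹, (mem_normalizer_iff.mp g.2 _).mp l.2⟩ : L) : L ⧸ center L) := rfl

theorem commutator_mem_centralizer_of_actQ_eq_one {L : Subgroup G} {g : normalizer (L : Set G)}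
    (h : actQ L g = 1) {l : G} (hl : l ∈ L) : ⁅l, (g : G)⁆ ∈ centralizer (L : Set G) := by
  have h1 := actQ_mk L g ⟨l⁻¹, L.inv_mem hl⟩
  rw [h, MulAut.one_apply, QuotientGroup.eq] at h1
  intro y hy
  have h2 := congrArg Subtype.val (mem_center_iff.mp h1 ⟨y, hy⟩)
  simpa [commutatorElement_def, mul_assoc] using h2

theorem actQ_of_mem {L : Subgroup G} (l : L) :
    actQ L ⟨l, le_normalizer l.2⟩ = MulAut.conj (l : L ⧸ center L) := by
  ext q
  induction q using QuotientGroup.induction_on
  rfl

theorem mem_signalizerDelta {p : ℕ} {A : Subgroup G} {x : G} :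
    x ∈ signalizerDelta p A ↔ ∀ a ∈ A, a ≠ 1 → x ∈ Opp p (centralizer {a}) :=
  mem_signalizerInf (B := A) (θ := fun a => centralizerPPrimeCore p a)

theorem signalizerDelta_le {p : ℕ} {A : Subgroup G} {a : G} (ha : a ∈ A) (h1 : a ≠ 1) :
    signalizerDelta p A ≤ Opp p (centralizer {a}) := fun _ hx => mem_signalizerDelta.mp hx a ha h1

theorem le_signalizerDelta {p : ℕ} {A X : Subgroup G}
    (h : ∀ a ∈ A, a ≠ 1 → X ≤ Opp p (centralizer {a})) : X ≤ signalizerDelta p A :=
  fun _ hx => mem_signalizerDelta.mpr fun a ha h1 => h a ha h1 hx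

theorem signalizerDelta_le_centralizer {p : ℕ} (A : Subgroup G) :
    signalizerDelta p A ≤ centralizer (A : Set G) :=
  le_centralizer_of_forall fun _ ha h1 => (signalizerDelta_le ha h1).trans (map_subtype_le _)

variable [Finite G] {p k : ℕ} [hp : Fact p.Prime]

open H7 in
theorem signalizerDelta_eq_bot_of_locally (hk : 1 ≤ k) (hO : pPrimeCore p G = ⊥)
    (h : ∀ L : Subgroup G, IsComponent L → IsLocallyKBalanced p k (L ⧸ center L))
    {A : Subgroup G} (hA : IsElementaryAbelian p A) (hAk : Nat.card A = p ^ k) :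
    signalizerDelta p A = ⊥ := by
  have h0 : opp p (⊤ : Subgroup G) = ⊥ := by rwa [opp_top]
  obtain ⟨a₀, ha₀, ha₀1⟩ := exists_mem_ne_one_of_le_card (Nat.one_le_iff_ne_zero.mp hk) hAk.ge
  set D := signalizerDelta p A with hD
  have hDp : ¬ p ∣ Nat.card D :=
    H8.not_dvd_card_of_le (signalizerDelta_le ha₀ ha₀1) (not_dvd_card_opp _)
  have hP : ∀ a ∈ A, IsPGroup p (zpowers a) := fun a ha =>
    (elemAb_pgroup hA).to_le (zpowers_le_of_mem ha)
  have hY1 : ∀ a : G, opp p (centralizer {a}) =
      opp p (⊤ ⊓ centralizer ((zpowers a : Subgroup G) : Set G)) := fun a => by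
    rw [top_inf_eq, centralizer_zpowers]
  have hD0 : D ≤ ope p (⊤ ⊓ centralizer ((zpowers a₀ : Subgroup G) : Set G)) :=
    (signalizerDelta_le ha₀ ha₀1).trans ((hY1 a₀).le.trans (opp_le_ope _))
  suffices hs : D ≤ op p ⊤ from eq_bot_of_isPGroup_of_not_dvd ((op_isPGroup _).to_le hs) hDp
  refine le_op_of_comm_components h0 le_top
    (comm_eq_bot_of_le (comm_ope_inf_centralizer_op (hP a₀ ha₀) le_top) hD0 le_rfl) fun L hL => ?_
  by_cases hne : ∃ a ∈ A, a ≠ 1 ∧ ⁅L, zpowers a⁆ ≠ L
  · obtain ⟨a, ha, ha1, hne⟩ := hne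
    have h1 := comm_opp_inf_centralizer h0 hL (mem_top a) (elemAb_orderOf hA ha ha1) hne
    rw [top_inf_eq] at h1
    exact comm_eq_bot_of_le h1 le_rfl (signalizerDelta_le ha ha1)
  push Not at hne
  have hL' := compOf_top_iff.mp hL
  have hAL : A ≤ normalizer (L : Set G) := fun a ha => by
    by_cases h1 : a = 1
    · rw [h1]; exact one_mem _
    · have := normalizer_commutator_ge_right L (zpowers a)
      rw [hne a ha h1] at this
      exact this (mem_zpowers a)
  have hDL : D ≤ normalizer (L : Set G) :=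
    hD0.trans (ope_inf_centralizer_le_normalizer h0 (hP a₀ ha₀) le_top hL)
  have hDA : D ⊔ A ≤ centralizer (A : Set G) :=
    sup_le (signalizerDelta_le_centralizer A) (le_centralizer_of_comm (elemAb_comm hA) le_rfl)
  have hDAL : D ⊔ A ≤ normalizer (L : Set G) := sup_le hDL hAL
  set W := L ⊔ (D ⊔ A) with hW
  have hWL : W ≤ normalizer (L : Set G) := sup_le le_normalizer hDAL
  have hAW : A ≤ W := le_sup_right.trans le_sup_right
  have hDW : D ≤ W := le_sup_left.trans le_sup_right
  let φ : W →* MulAut (L ⧸ center L) := (actQ L).comp (inclusion hWL)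
  let f := φ.rangeRestrict
  have hker : ∀ g : W, f g = 1 → ∀ l ∈ L, ⁅l, (g : G)⁆ ∈ centralizer (L : Set G) :=
    fun g hg l hl => commutator_mem_centralizer_of_actQ_eq_one (g := inclusion hWL g)
      (congrArg Subtype.val hg) hl
  have hcomm : ∀ X : Subgroup G, X ≤ W → (X.subgroupOf W).map f = ⊥ → ⁅L, X⁆ ≠ L := by
    intro X hX h1 h2
    refine QS.not_le_centralizer hL.qs (h2.ge.trans ?_)
    refine commutator_le.mpr fun l hl x hx => hker ⟨x, hX hx⟩ ?_ l hl
    exact (Subgroup.map_eq_bot_iff _).mp h1 (show (⟨x, hX hx⟩ : W) ∈ X.subgroupOf W from hx)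
  have hinj : ∀ a : W, (a : G) ∈ A → f a = 1 → a = 1 := fun a ha h1 => by
    by_contra h2
    have h3 : (a : G) ≠ 1 := fun h3 => h2 (Subtype.ext h3)
    refine hcomm _ (zpowers_le_of_mem a.2) ?_ (hne a ha h3)
    rw [Subgroup.map_eq_bot_iff]
    rintro x ⟨n, hn⟩
    rw [show x = a ^ n from Subtype.ext hn.symm]
    exact zpow_mem h1 n
  have hcard : Nat.card ((A.subgroupOf W).map f) = p ^ k := by
    have h1 := card_eq_card_inf_ker_mul_card_map f (A.subgroupOf W)
    have h2 : A.subgroupOf W ⊓ f.ker = ⊥ := (eq_bot_iff_forall _).mpr fun a ha => hinj a ha.1 ha.2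
    rw [card_subgroupOf_of_le hAW, h2, card_bot, one_mul] at h1
    rw [← h1, hAk]
  have h1 := h L hL' φ.range (by
    rintro _ ⟨q, rfl⟩
    induction q using QuotientGroup.induction_on with
    | H l => exact ⟨⟨l, mem_sup_left l.2⟩, actQ_of_mem l⟩) _
    (elemAb_map (elemAb_subgroupOf hA W) f) hcard
  refine (QS.commutator_eq_or hL.qs hDL).resolve_left (hcomm D hDW (le_bot_iff.mp ?_))
  rw [← h1]
  refine le_signalizerDelta ?_
  rintro _ ⟨a, ha, rfl⟩ ha1
  have ha1' : (a : G) ≠ 1 := fun h2 => ha1 (by rw [show a = 1 from Subtype.ext h2, map_one])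
  set Y := opp p (centralizer {(a : G)}) with hY
  have hYx : Y ≤ centralizer {(a : G)} := opp_le _
  refine (map_mono (comap_mono (signalizerDelta_le (A := A) (a := a) ha ha1'))).trans
    (le_map_pPrimeCore (N := (Y.subgroupOf W).map f) ?_ ?_ ?_)
  · rintro _ ⟨y, hy, rfl⟩
    rw [mem_centralizer_singleton_iff, ← map_mul, ← map_mul]
    congr 1
    exact Subtype.ext (mem_centralizer_singleton_iff.mp (hYx hy))
  · intro g hg
    obtain ⟨g, rfl⟩ := φ.rangeRestrict_surjective g
    refine le_normalizer_map f (mem_map_of_mem f (le_normalizer_comap _ ?_))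
    obtain ⟨l, hl, w, hw, hg'⟩ := (mem_sup_of_le_normalizer hDAL).mp g.2
    have h4 : w * a = a * w := (hDA hw a ha).symm
    have h2 : f ⁅g, a⁆ = 1 := by
      rw [map_commutatorElement, commutatorElement_eq_one_iff_mul_comm]
      exact mem_centralizer_singleton_iff.mp hg
    have h3 : ⁅(g : G), (a : G)⁆ = ⁅l, (a : G)⁆ := by
      rw [← hg', commutatorElement_def, commutatorElement_def, mul_assoc l w a, h4]; group
    have h5 : ⁅l, (a : G)⁆ ∈ L :=
      le_normalizer_iff_commutator_le_left.mp hAL (commutator_mem_commutator hl ha)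
    have h6 : ⁅l, (a : G)⁆ ∈ centralizer (L : Set G) := by
      have h7 : ⁅L, zpowers ⁅l, (a : G)⁆⁆ ≠ L := hcomm _ (zpowers_le_of_mem (mem_sup_left h5)) (by
        rw [Subgroup.map_eq_bot_iff]
        rintro x ⟨n, hn⟩
        rw [show x = ⁅g, a⁆ ^ n from Subtype.ext (by rw [← h3] at hn; exact hn.symm)]
        exact zpow_mem h2 n)
      exact le_centralizer_iff.mp (commutator_eq_bot_iff_le_centralizer.mp
        ((QS.commutator_eq_or hL.qs (zpowers_le_of_mem (le_normalizer h5))).resolve_left h7))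
        (mem_zpowers _)
    have h7 : ⁅l, (a : G)⁆ ∈ pCore p G := by
      rw [← fitting_eq_pCore_of_pPrimeCore_eq_bot hO]
      exact Comp.center_le_fitting hL' ⟨h5, h6⟩
    have h8 : l ∈ normalizer ((zpowers (a : G) ⊔ pCore p G : Subgroup G) : Set G) := by
      apply mem_normalizer_of_cj_le
      rw [cj_sup]
      refine sup_le ?_ ((cj_eq_self (le_normalizer_of_normal (K := ⊤) (mem_top l))).le.trans
        le_sup_right)
      rw [cj, MonoidHom.map_zpowers, zpowers_le]
      have : (MulAut.conj l).toMonoidHom (a : G) = ⁅l, (a : G)⁆ * a := by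
        simp [commutatorElement_def]
      rw [this]
      exact mul_mem (mem_sup_right h7) (mem_sup_left (mem_zpowers _))
    have hY2 : Y = opp p (normalizer ((zpowers (a : G) ⊔ pCore p G : Subgroup G) : Set G)) := by
      rw [hY, hY1, opp_eq_of_ope_eq ((ope_inf_centralizer_eq (hP a ha) le_top).trans
        (ope_inf_normalizer_sup_op (hP a ha) le_top)), top_inf_eq, H7.op_top]
    change (g : G) ∈ normalizer (Y : Set G)
    rw [← hg']
    refine mul_mem ?_ (le_normalizer_opp _ (centralizer_le_singleton (B := A) (a := a) ha (hDA hw)))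
    rw [hY2]
    exact le_normalizer_opp _ h8
  · refine H8.not_dvd_card_map ?_ f
    rw [card_subgroupOf]
    exact H8.not_dvd_card_of_le inf_le_left (not_dvd_card_opp _)

/-- `Δ(A)` maps into `Δ(Ā)` modulo a normal `p'`-subgroup. -/
theorem map_signalizerDelta_le {G' : Type*} [Group G'] (f : G →* G') (hf : Function.Surjective f)
    (hker : ¬ p ∣ Nat.card f.ker) {A : Subgroup G} (hA : IsPGroup p A) :
    (signalizerDelta p A).map f ≤ signalizerDelta p (A.map f) := by
  refine le_signalizerDelta ?_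
  rintro _ ⟨a, ha, rfl⟩ h1
  have h2 : a ≠ 1 := fun h => h1 (by rw [h, map_one])
  have h3 := (CopAct.of_pgroup (hA.to_le (zpowers_le_of_mem ha)) hker
    le_normalizer_of_normal).centralizer_map f hf
  rw [MonoidHom.map_zpowers, centralizer_zpowers, centralizer_zpowers] at h3
  rw [h3]
  exact (map_mono (signalizerDelta_le ha h2)).trans (map_map_pPrimeCore_le f _)

theorem signalizerDelta_subgroupOf_le {A H : Subgroup G} :
    (signalizerDelta p A).subgroupOf H ≤ signalizerDelta p (A.subgroupOf H) := by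
  refine le_signalizerDelta fun a ha h1 => ?_
  have h2 : (a : G) ≠ 1 := fun h => h1 (Subtype.ext h)
  refine (comap_mono (signalizerDelta_le (A := A) (a := a) ha h2)).trans (le_map_pPrimeCore ?_ ?_ ?_)
  · rw [centralizer_singleton_subgroupOf]
    exact comap_mono (map_subtype_le _)
  · rw [centralizer_singleton_subgroupOf]
    exact subgroupOf_le_normalizer (le_normalizer_map_pPrimeCore _) H
  · change ¬ p ∣ Nat.card ((Opp p (centralizer {(a : G)})).subgroupOf H)
    rw [card_subgroupOf]
    exact H8.not_dvd_card_of_le inf_le_left (not_dvd_card_map_pPrimeCore _)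

theorem signalizerDelta_le_pPrimeCore_of_locally (hk : 1 ≤ k)
    (h : ∀ L : Subgroup (G ⧸ pPrimeCore p G), IsComponent L → IsLocallyKBalanced p k (L ⧸ center L))
    {A : Subgroup G} (hA : IsElementaryAbelian p A) (hAk : Nat.card A = p ^ k) :
    signalizerDelta p A ≤ pPrimeCore p G := by
  let f := QuotientGroup.mk' (pPrimeCore p G)
  have hker : f.ker = pPrimeCore p G := QuotientGroup.ker_mk' _
  have hk' : ¬ p ∣ Nat.card f.ker := by rw [hker]; exact not_dvd_card_pPrimeCore
  rw [← hker, ← Subgroup.map_eq_bot_iff, ← le_bot_iff]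
  refine (map_signalizerDelta_le f (QuotientGroup.mk'_surjective _) hk' (elemAb_pgroup hA)).trans
    (signalizerDelta_eq_bot_of_locally hk pPrimeCore_quotient_pPrimeCore h (elemAb_map hA f) ?_).le
  have h1 := card_eq_card_inf_ker_mul_card_map f A
  rw [disjoint_of_coprime_card (coprime_of_pgroup (elemAb_pgroup hA) hk'), card_bot, one_mul] at h1
  rw [← h1, hAk]

theorem isKBalanced_of_locally (hk : 1 ≤ k) (h : ∀ x : G, orderOf x = p →
    ∀ K : Subgroup (↥(centralizer ({x} : Set G)) ⧸ pPrimeCore p ↥(centralizer ({x} : Set G))),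
      IsComponent K → IsLocallyKBalanced p k (↥K ⧸ center ↥K)) : IsKBalanced p k G := by
  intro A hA hAk b hb hab
  have hAC : A ≤ centralizer {b} := fun a ha => mem_centralizer_singleton_iff.mpr (hab a ha)
  have h1 := signalizerDelta_le_pPrimeCore_of_locally hk (h b hb) (elemAb_subgroupOf hA _)
    (by rwa [card_subgroupOf_of_le hAC])
  rw [← subgroupOf_map_subtype]
  exact map_mono (signalizerDelta_subgroupOf_le.trans h1)

end Cfsg.Agent.H8
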